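import Cfsg.Agent.H500.IF.SpCell
import Cfsg.Agent.H17.IFSp.Mat
import Cfsg.Agent.S0245

/-!
# S5719, `PSp_8(q)`, `q` odd: the involutions with two eigenspaces of dimension 4 (helper162)
-/

set_option autoImplicit false

namespace Cfsg.Agent.H162.IFP

open Cfsg Module Cfsg.Agent.ClassicalGeometry.SympBasic Cfsg.Agent.ClassicalGeometry.SympSiegel Cfsg.Agent.H914.Gs
  Cfsg.Agent.H209.Fxy Cfsg.Agent.H500.IFSp

section

variable {F : Type*} [Field F] {m : ℕ}

/-- `z² = 1` and `rank (z - 1) = 2`: fundamental -/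
theorem fundl_of_rank (h2 : (2 : F) ≠ 0) {z : Matrix.symplecticGroup (Fin m) F} (hz : z * z = 1)
    (hr : ((z : Matrix (Fin m ⊕ Fin m) (Fin m ⊕ Fin m) F) - 1).rank = 2) : Fundl z := by
  have hzz : ∀ v : Fin m ⊕ Fin m → F, z • z • v = v := by
    intro v
    rw [← mul_smul, hz, one_smul]
  refine fund_of h2 hzz ?_
  suffices hsuf : eigS z (-1 : F) = LinearMap.range ((z : Matrix (Fin m ⊕ Fin m) (Fin m ⊕ Fin m) F) - 1).mulVecLin by
    rw [← hr, Matrix.rank, hsuf]
  apply le_antisymm
  · intro v hv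
    rw [mem_eigS] at hv
    refine ⟨(-2 : F)⁻¹ • v, ?_⟩
    rw [Matrix.mulVecLin_apply, Matrix.mulVec_smul, Matrix.sub_mulVec, Matrix.one_mulVec, ← smul_def, hv]
    have h3 : (-1 : F) • v - v = (-2 : F) • v := by module
    rw [h3, smul_smul, inv_mul_cancel₀ (neg_ne_zero.2 h2), one_smul]
  · rintro _ ⟨x, rfl⟩
    rw [Matrix.mulVecLin_apply, Matrix.sub_mulVec, Matrix.one_mulVec, ← smul_def, mem_eigS]
    have h3 : z • (z • x - x) = z • z • x - z • x := by
      rw [sub_eq_add_neg, smul_add', smul_neg', ← sub_eq_add_neg]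
    rw [h3, hzz, neg_smul, one_smul, neg_sub]

end

/-- **(2,2)**: no involution with two eigenspaces of dimension 4 in `A`, if `A` has no fundamental involution. -/
theorem two_two (F : Type) [Field F] [Fintype F] (ho : Odd (Fintype.card F))
    (hs : IsSimpleGroup (PSp 4 F)) {A : Subgroup (PSp 4 F)} {Γ : Subgroup (MulAut (PSp 4 F))} (h : IF A Γ)
    (hF : ∀ z ∈ A.comap (QuotientGroup.mk' (Subgroup.center (Matrix.symplecticGroup (Fin 4) F))), Fundl z → False)
    {x : Matrix.symplecticGroup (Fin 4) F}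
    (hx : x ∈ A.comap (QuotientGroup.mk' (Subgroup.center (Matrix.symplecticGroup (Fin 4) F))))
    (hxx : ∀ v : Fin 4 ⊕ Fin 4 → F, x • x • v = v) (hd : finrank F (eigS x (-1 : F)) = 4) : False := by
  have : Finite (Matrix.symplecticGroup (Fin 4) F) := Subtype.finite
  have : Finite (PSp 4 F) := Quotient.finite _
  have h2 := two_ne ho
  have hxx' : x * x = 1 := ext_smul fun v => by rw [mul_smul, hxx, one_smul]
  have hna : ∃ a b : PSp 4 F, a * b ≠ b * a := by
    by_contra hcon
    push Not at hcon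
    have hn : A.Normal := ⟨fun a ha g => by rw [hcon g a, mul_inv_cancel_right]; exact ha⟩
    rcases hn.eq_bot_or_eq_top with h7 | h7
    · exact h.ne_bot h7
    · exact h.ne_top h7
  have hd' : finrank F (Cfsg.Agent.H17.IFSp.eigM x (-1)) = 2 * 2 := hd
  obtain ⟨k, l, hk, hl, hkl⟩ := Cfsg.Agent.H17.IFSp.exists_dims h2 hxx'
  have hk2 : k = 2 := by omega
  subst hk2
  have hl2 : l = 2 := by omega
  subst hl2
  have hphi := Cfsg.Agent.H17.IFSp.phi_mat_cent h2 hxx' hk hl
    (A.comap (QuotientGroup.mk' (Subgroup.center (Matrix.symplecticGroup (Fin 4) F))))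
    (fun z hz hr hzA => hF z hzA (fundl_of_rank h2 hz hr))
  have ht1 : QuotientGroup.mk' (Subgroup.center (Matrix.symplecticGroup (Fin 4) F)) x ≠ 1 := by
    intro h5
    have h6 := (QuotientGroup.eq_one_iff (N := Subgroup.center (Matrix.symplecticGroup (Fin 4) F)) _).1 h5
    rcases of_mem_center (by omega) h6 with h7 | h7
    · have h8 : eigS x (-1 : F) = ⊥ := by
        rw [eq_bot_iff]
        intro v hv
        rw [mem_eigS, h7] at hv
        rw [Submodule.mem_bot]
        have h9 : (2 : F) • v = 0 := by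
          rw [two_smul]
          nth_rewrite 1 [hv]
          module
        exact (smul_eq_zero.1 h9).resolve_left h2
      rw [h8, finrank_bot] at hd
      omega
    · have h8 : eigS x (-1 : F) = ⊤ := by
        rw [eq_top_iff]
        intro v _
        rw [mem_eigS, h7]
        module
      rw [h8, finrank_top, Cfsg.Agent.H17.IFSp.finrank_V] at hd
      omega
  have hE := Cfsg.Agent.H847.IF.lift_E2_card h hna _ (QuotientGroup.mk'_surjective _) hx ht1
    (by rw [hxx', map_one]) (B := Subgroup.centralizer ({x} : Set (Matrix.symplecticGroup (Fin 4) F)))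
    (fun b hb => by rw [Subgroup.mem_centralizer_singleton_iff.1 hb])
  -- the order of the group
  have hord : Nat.card (Matrix.symplecticGroup (Fin 4) F) < Nat.card F ^ 36 := by
    rw [Cfsg.Agent.S0245.result (F := F) (q := Nat.card F) (Nat.card_eq_fintype_card).symm 4]
    have hq : 1 < Nat.card F := Finite.one_lt_card
    generalize Nat.card F = q at *
    have h3 : ∏ i ∈ Finset.range 4, (q ^ (2 * (i + 1)) - 1) < q ^ 20 := by
      have h4 : ∀ n : ℕ, q ^ n - 1 < q ^ n := fun n => Nat.sub_lt (by positivity) one_pos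
      simp only [Finset.prod_range_succ, Finset.prod_range_zero, one_mul]
      calc (q ^ (2 * (0 + 1)) - 1) * (q ^ (2 * (1 + 1)) - 1) * (q ^ (2 * (2 + 1)) - 1) * (q ^ (2 * (3 + 1)) - 1)
          < q ^ (2 * (0 + 1)) * q ^ (2 * (1 + 1)) * q ^ (2 * (2 + 1)) * q ^ (2 * (3 + 1)) := by
            refine Nat.mul_lt_mul'' (Nat.mul_lt_mul'' (Nat.mul_lt_mul'' (h4 _) (h4 _)) (h4 _)) (h4 _)
        _ = q ^ 20 := by ring
    calc q ^ 4 ^ 2 * ∏ i ∈ Finset.range 4, (q ^ (2 * (i + 1)) - 1) < q ^ 4 ^ 2 * q ^ 20 :=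
          Nat.mul_lt_mul_of_pos_left h3 (by positivity)
      _ = q ^ 36 := by ring
  have hrel : (A.comap (QuotientGroup.mk' (Subgroup.center (Matrix.symplecticGroup (Fin 4) F)))).relIndex
      (Subgroup.centralizer ({x} : Set (Matrix.symplecticGroup (Fin 4) F))) ≤
      Nat.card (Subgroup.centralizer ({x} : Set (Matrix.symplecticGroup (Fin 4) F))) := by
    rw [Subgroup.relIndex]
    exact Nat.le_of_dvd Nat.card_pos (Subgroup.index_dvd_card _)
  generalize (A.comap (QuotientGroup.mk' (Subgroup.center (Matrix.symplecticGroup (Fin 4) F)))).relIndex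
      (Subgroup.centralizer ({x} : Set (Matrix.symplecticGroup (Fin 4) F))) = r at *
  generalize Nat.card (Subgroup.centralizer ({x} : Set (Matrix.symplecticGroup (Fin 4) F))) = c at *
  generalize Nat.card F = q at *
  have h3 : (q ^ 6) ^ 6 ≤ r ^ 5 * c := by
    calc (q ^ 6) ^ 6 = (q ^ 6) ^ 5 * q ^ 6 := by ring
      _ ≤ r ^ 5 * c := Nat.mul_le_mul (Nat.pow_le_pow_left hphi 5) (le_trans hphi hrel)
  have h4 : (q ^ 6) ^ 6 = q ^ 36 := by ring
  omega

end Cfsg.Agent.H162.IFP
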